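import Cfsg.Agent.Lib.TC.Data.ONOrd.Arr
import Cfsg.Agent.Lib.TC.Data.ONOrd.U0
import Cfsg.Agent.Lib.TC.Data.ONOrd.U1
import Cfsg.Agent.Lib.TC.Data.ONOrd.U2
import Cfsg.Agent.Lib.TC.Data.ONOrd.U3
import Cfsg.Agent.Lib.TC.Data.ONOrd.U4
import Cfsg.Agent.Lib.TC.Data.ONOrd.U5
import Cfsg.Agent.Lib.TC.Data.ONOrd.U6
import Cfsg.Agent.Lib.TC.Data.ONOrd.U7
import Cfsg.Agent.Lib.TC.Data.ONOrd.U8
import Cfsg.Agent.Lib.TC.Data.ONOrd.U9
import Cfsg.Agent.Lib.TC.Data.ONOrd.U10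
import Cfsg.Agent.Lib.TC.Data.ONOrd.U11
import Cfsg.Agent.Lib.TC.Data.ONOrd.U12

set_option autoImplicit false

namespace Cfsg.Agent.Lib.TC.Data.ONOrd

open Cfsg.Agent.Lib.TC

theorem doneU : Done Fu 122760 := by
  have h0 := Done.zero Fu
  have h1 : Done Fu 9444 := Done.step h0 U0_ok rfl
  have h2 : Done Fu 18888 := Done.step h1 U1_ok rfl
  have h3 : Done Fu 28332 := Done.step h2 U2_ok rfl
  have h4 : Done Fu 37776 := Done.step h3 U3_ok rfl
  have h5 : Done Fu 47220 := Done.step h4 U4_ok rfl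
  have h6 : Done Fu 56664 := Done.step h5 U5_ok rfl
  have h7 : Done Fu 66108 := Done.step h6 U6_ok rfl
  have h8 : Done Fu 75552 := Done.step h7 U7_ok rfl
  have h9 : Done Fu 84996 := Done.step h8 U8_ok rfl
  have h10 : Done Fu 94440 := Done.step h9 U9_ok rfl
  have h11 : Done Fu 103884 := Done.step h10 U10_ok rfl
  have h12 : Done Fu 113328 := Done.step h11 U11_ok rfl
  have h13 : Done Fu 122760 := Done.step h12 U12_ok rfl
  exact h13

end Cfsg.Agent.Lib.TC.Data.ONOrd
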